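import Mathlib
import Cfsg.Agent.Lib.AltSec.E7Tab
import Cfsg.Agent.Lib.AltSec.Small
import Cfsg.Agent.Lib.Semi.Alcove

/-!
Rational elements of order five and seven in the torus of type `E₇`.
-/

set_option autoImplicit false

namespace CfsgLib.AltSec

open Subgroup CfsgLib.RGD CfsgLib.Weyl CfsgLib.Chev Cfsg.Lie Multiplicative Finset

theorem ker_card {A : Type*} [Group A] [Fintype A] {l : ℕ} [hp : Fact l.Prime] (φ : A →* Multiplicative (ZMod l))
    (h : φ ≠ 1) : l * #{a | φ a = 1} = Fintype.card A := by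
  have h1 : Nat.card φ.range = l := by
    have := card_subgroup_dvd_card φ.range
    rw [Nat.card_congr Multiplicative.toAdd, Nat.card_zmod] at this
    exact ((Nat.dvd_prime hp.out).1 this).resolve_left fun e => h (MonoidHom.range_eq_bot_iff.1 (eq_bot_of_card_eq _ e))
  rw [← Nat.card_eq_fintype_card, ← φ.ker.index_mul_card, index_ker, h1, ← Fintype.card_subtype,
    ← Nat.card_eq_fintype_card]
  rfl

open _root_.Classical in
theorem sum_card_eq {A ι : Type*} [Group A] [Fintype A] [Fintype ι] {l : ℕ} [hp : Fact l.Prime]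
    (χ : ι → A →* Multiplicative (ZMod l)) (ψ : A →* Multiplicative (ZMod l)) :
    l * ∑ a, #{r | χ r a = ψ a} = Fintype.card A * (Fintype.card ι + (l - 1) * #{r | χ r = ψ}) := by
  have : ∀ r, l * #{a | χ r a = ψ a} = Fintype.card A * (1 + (l - 1) * if χ r = ψ then 1 else 0) := fun r => by
    split_ifs with h
    · have := hp.out.pos
      simp [h, mul_comm, show 1 + (l - 1) = l by omega]
    · simpa [div_eq_one] using ker_card (χ r / ψ) (div_ne_one.2 h)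
  simp only [card_filter] at this ⊢
  rw [sum_comm, mul_sum, sum_congr rfl fun r _ => this r, ← mul_sum, sum_add_distrib, ← mul_sum]
  simp

section

variable {ι κ : Type} [Fintype κ] [DecidableEq κ] (Φ : RootSys ι κ)

theorem exists_conj_std [Finite ι] {l : ℕ} [hp : Fact l.Prime] (hW : ¬ l ^ 2 ∣ Nat.card Φ.W) {w w₀ : Equiv.Perm ι}
    (hw : w ∈ Φ.W) (h : orderOf w = l) (hw₀ : w₀ ∈ Φ.W) (h₀ : w₀ ^ l = 1) : ∃ g ∈ Φ.W, g * w₀ * g⁻¹ ∈ zpowers w := by
  obtain ⟨g, hg, e⟩ := exists_conj_le (K := zpowers w) (M := Φ.W) (l := l) (fun h1 => hW (by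
    rw [← card_mul_index ((zpowers w).subgroupOf Φ.W),
      Nat.card_congr (subgroupOfEquivOfLe (zpowers_le.2 hw)).toEquiv, Nat.card_zpowers, h, sq]
    exact mul_dvd_mul_left _ h1)) (isPGroup_zpowers h₀) (zpowers_le.2 hw₀)
  exact ⟨g, hg, e _ (mem_zpowers _)⟩

theorem fix_zpowers {M : Type*} {f : ι → M} {w : Equiv.Perm ι} [Finite ι] (h : ∀ r, f r = f (w r)) {u : Equiv.Perm ι}
    (hu : u ∈ zpowers w) (r : ι) : f r = f (u r) := by
  obtain ⟨n, rfl⟩ := (mem_powers_iff_mem_zpowers.2 hu)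
  induction n with
  | zero => rfl
  | succ n ih => exact (ih (pow_mem (mem_zpowers w) n)).trans (by simpa [pow_succ'] using h _)

theorem chr_add {M : Type*} [CommGroup M] (y : κ → M) {r s k : ι} (h : ∀ j, Φ.rt k j = Φ.rt r j + Φ.rt s j) :
    Φ.chr y k = Φ.chr y r * Φ.chr y s := by
  simp [RootSys.chr, h, zpow_add, prod_mul_distrib]

end

/-- the root system of type `E₇` -/
abbrev Φ7 : RootSys (Fin 126) (Fin 7) := rootSys rtOKE7

theorem card_W7 : Nat.card Φ7.W = 2903040 := card_W _ hasChainE7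

theorem exists_word7 (L : List ℕ) (hL : ∀ i ∈ L, i < 7) : ∃ w ∈ Φ7.W, ∀ r, (w r : ℕ) = applyW tTE7 L r := by
  obtain ⟨L', -, e⟩ := Lang.exists_word rtOKE7 tablesOKE7 L hL
  exact ⟨_, Φ7.wprod_mem_W L', e⟩

theorem val7_lt {l : ℕ} (h : 0 < l) (a b c d e f g r : ℕ) : val7 l a b c d e f g r < l := Nat.mod_lt _ h

theorem val7_eq {l : ℕ} (h : l ∣ 35) (z : Fin 7 → ℕ) (r : Fin 126) :
    (val7 l (z 0) (z 1) (z 2) (z 3) (z 4) (z 5) (z 6) r : ZMod l) = (Φ7.ip (fun j => z j) r : ℤ) := by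
  have h1 : ∀ i : ℕ, (nb7 r i : ZMod l) = (coT tRE7 r i : ℤ) := fun i => by
    have : (nb7 r i : ℤ) = coT tRE7 r i + 35 := by
      rw [coT, nb7]
      omega
    rw [← Int.cast_natCast, this, Int.cast_add, show ((35 : ℤ) : ZMod l) = ((35 : ℕ) : ZMod l) by simp,
      (ZMod.natCast_eq_zero_iff _ _).2 h, add_zero]
  simp [val7, RootSys.ip, Fin.sum_univ_seven, show ∀ i, Φ7.rt r i = coT tRE7 r i from fun _ => rfl, h1]

theorem chr_eq {l : ℕ} [NeZero l] (y : Fin 7 → Multiplicative (ZMod l)) (r : Fin 126) :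
    (Φ7.chr y r).toAdd = (Φ7.ip (fun j => (y j).toAdd.val) r : ℤ) := by
  simp [RootSys.chr, RootSys.ip, toAdd_prod]

theorem cnt7_eq {l : ℕ} [NeZero l] {v : ℕ → ℕ} (hv : ∀ r, v r < l) {f : Fin 126 → ZMod l} (x : Equiv.Perm (Fin 126))
    (h : ∀ r, f (x r) = v r) (c : ZMod l) : #{r | f r = c} = cnt7 v c.val := by
  rw [← card_equiv (s := {r : Fin 126 | v r = c.val}) x fun r => by
    simp only [mem_filter, mem_univ, true_and, h]
    exact ⟨fun e => by rw [e, ZMod.natCast_zmod_val], fun e => by rw [← e, ZMod.val_natCast_of_lt (hv r)]⟩,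
    card_filter, cnt7, Fin.sum_univ_eq_sum_range fun r => if v r = c.val then 1 else 0, ← card_filter,
    List.countP_eq_length_filter]
  rfl

theorem exists_alc {l : ℕ} [NeZero l] (h : l ∣ 35) {y : Fin 7 → Multiplicative (ZMod l)} (h0 : y ≠ 1)
    {w : Equiv.Perm (Fin 126)} (hw : ∀ r, Φ7.chr y r = Φ7.chr (y ^ 2) (w r)) :
    ∃ x ∈ Φ7.W, ∃ a b c d e f g : ℕ, 2 * a + 2 * b + 3 * c + 4 * d + 3 * e + 2 * f + g ≤ l ∧
      (∀ r, (Φ7.chr y (x r)).toAdd = val7 l a b c d e f g r) ∧ cnt7 (val7 l a b c d e f g) 0 ≠ 126 ∧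
      sm (fun r => 256 ^ val7 l a b c d e f g r) 126 = sm (fun r => 256 ^ (2 * val7 l a b c d e f g r % l)) 126 := by
  obtain ⟨x, hx, z, h1, h2⟩ := Semi.exists_alcove Φ7 (NeZero.pos l) fun j => (y j).toAdd.val
  have h3 : ∀ r, (Φ7.chr y (x r)).toAdd = val7 l (z 0) (z 1) (z 2) (z 3) (z 4) (z 5) (z 6) r := fun r => by
    rw [val7_eq h, chr_eq, (ZMod.intCast_eq_intCast_iff _ _ _).2 (h1 r)]
  refine ⟨x, hx, _, _, _, _, _, _, _, ?_, h3, fun e => h0 (funext fun j => ?_), ?_⟩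
  · have := h2 125
    rw [RootSys.ip, show Φ7.rt 125 = ![2, 2, 3, 4, 3, 2, 1] by decide +kernel] at this
    simp [Fin.sum_univ_seven] at this
    omega
  · have := cnt7_eq (val7_lt (NeZero.pos l) _ _ _ _ _ _ _) (f := fun r => (Φ7.chr y r).toAdd) x h3 0
    rw [ZMod.val_zero, e] at this
    have := (eq_univ_of_card _ (this.trans (Fintype.card_fin _).symm)).ge (mem_univ (Φ7.simple j))
    simpa [Φ7.chr_simple] using this
  · rw [sm_eq, sm_eq, ← Equiv.sum_comp (x⁻¹ * w * x) fun r => 256 ^ (2 * val7 l _ _ _ _ _ _ _ r % l)]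
    refine sum_congr rfl fun r _ => ?_
    have := congrArg toAdd (hw (x r))
    rw [show w (x r) = x ((x⁻¹ * w * x) r) by simp, Φ7.chr_pow, toAdd_pow, h3, h3] at this
    rw [← Nat.mod_eq_of_lt (val7_lt (NeZero.pos l) _ _ _ _ _ _ _ r), (ZMod.natCast_eq_natCast_iff' _ _ _).1
      (this.trans (by rw [nsmul_eq_mul, ← Nat.cast_mul]))]

theorem rat7 {y : Fin 7 → Multiplicative (ZMod 7)} (h0 : y ≠ 1)
    {w : Equiv.Perm (Fin 126)} (hw : ∀ r, Φ7.chr y r = Φ7.chr (y ^ 2) (w r)) :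
    (#{r | (Φ7.chr y r).toAdd = 0} = 30 ∧ #{r | (Φ7.chr y r).toAdd = 1} = 16) ∨
    (#{r | (Φ7.chr y r).toAdd = 0} = 24 ∧ #{r | (Φ7.chr y r).toAdd = 1} = 17) ∨
    (#{r | (Φ7.chr y r).toAdd = 0} = 12 ∧ #{r | (Φ7.chr y r).toAdd = 1} = 19 ∧
      ∃ x ∈ Φ7.W, ∀ r, (Φ7.chr y (x r)).toAdd = val7 7 0 0 0 1 0 1 0 r) := by
  obtain ⟨x, hx, a, b, c, d, e, f, g, h1, h2, h3, h4⟩ := exists_alc (by decide) h0 hw
  have h5 := chk7 d (by omega) c (by omega) e (by omega) a (by omega) (by omega) b (by omega) f (by omega) g (by omega)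
  have h6 := cnt7_eq (val7_lt (by decide) a b c d e f g) (f := fun r => (Φ7.chr y r).toAdd) x h2
  rw [h6, h6]
  simp only [tst7, h4, h3, Bool.or_eq_true, Bool.and_eq_true, bne_self_eq_false, Bool.false_eq_true, false_or,
    beq_iff_eq, List.any_eq_true, allLt_iff] at h5
  rcases h5 with (h5 | h5) | ⟨h5, L, hL, h7⟩
  exacts [Or.inl h5, Or.inr (Or.inl h5), Or.inr (Or.inr ⟨h5.1, h5.2, by
    obtain ⟨u, hu, e⟩ := exists_word7 L (by clear h7; revert L; decide)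
    exact ⟨x * u, mul_mem hx hu, fun r => by
      rw [Equiv.Perm.mul_apply, h2, ← h7 r r.2, ← e]⟩⟩)]

theorem rat5 {y : Fin 7 → Multiplicative (ZMod 5)} (h0 : y ≠ 1)
    {w : Equiv.Perm (Fin 126)} (hw : ∀ r, Φ7.chr y r = Φ7.chr (y ^ 2) (w r)) (t : Multiplicative (ZMod 5)) :
    #{r | Φ7.chr y r = t} = 25 + if t = 1 then 1 else 0 := by
  obtain ⟨x, hx, a, b, c, d, e, f, g, h1, h2, h3, h4⟩ := exists_alc (by decide) h0 hw
  have h5 := chk5 d (by omega) c (by omega) e (by omega) a (by omega) (by omega) b (by omega) f (by omega) g (by omega)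
  have h6 := cnt7_eq (val7_lt (by decide) a b c d e f g) (f := fun r => (Φ7.chr y r).toAdd) x h2 t.toAdd
  simp only [tst5, h4, h3, Bool.or_eq_true, bne_self_eq_false, Bool.false_eq_true, false_or,
    beq_iff_eq, allLt_iff] at h5
  rw [h5 _ (ZMod.val_lt _)] at h6
  refine Eq.trans h6 ?_
  clear h6
  revert t
  decide

theorem no_fix7 {w : Equiv.Perm (Fin 126)} (hw : w ∈ Φ7.W) (h : orderOf w = 7) (r : Fin 126) : w r ≠ r := fun e => by
  have : Fact (Nat.Prime 7) := ⟨by norm_num⟩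
  obtain ⟨u, hu, h1⟩ := exists_word7 [0, 2, 3, 4, 5, 6] (by decide)
  obtain ⟨g, -, h2⟩ := exists_conj_std Φ7 (by rw [card_W7]; norm_num) hw h hu (Equiv.ext fun r =>
    Fin.ext ((Lang.pow_apply_val h1 7 r).trans (by revert r; decide +kernel)))
  have h3 := fix_zpowers (f := fun s => s = r) (fun s => propext ⟨fun h => h ▸ h ▸ e, fun h => w.injective (h.trans e.symm)⟩)
    h2 r
  have h4 : u (g⁻¹ r) = g⁻¹ r := g.injective (by simpa using h3)
  exact (show ∀ r : Fin 126, applyW tTE7 [0, 2, 3, 4, 5, 6] r ≠ r by decide +kernel) _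
    ((h1 _).symm.trans (congrArg Fin.val h4))

theorem not_fix7 {y : Fin 7 → Multiplicative (ZMod 7)} (h0 : y ≠ 1)
    {u : Equiv.Perm (Fin 126)} (hu : ∀ r, Φ7.chr y r = Φ7.chr (y ^ 2) (u r)) {w : Equiv.Perm (Fin 126)} (hw : w ∈ Φ7.W)
    (h : orderOf w = 7) (h1 : ∀ r, Φ7.chr y r = Φ7.chr y (w r)) : False := by
  have : Fact (Nat.Prime 7) := ⟨by norm_num⟩
  obtain ⟨r, hr⟩ := Equiv.Perm.exists_fixed_point_of_prime (p := 7) (n := 1)
    (σ := w.subtypePerm (p := fun r => (Φ7.chr y r).toAdd = 0) fun r => by rw [← h1]) (by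
      rw [Fintype.card_subtype]
      have := rat7 h0 hu
      omega) (by rw [pow_one, Equiv.Perm.subtypePerm_pow]; ext; simp [← h, pow_orderOf_eq_one])
  exact no_fix7 hw h r (congrArg Subtype.val hr)

theorem kill5 {w : Equiv.Perm (Fin 126)} (hw : w ∈ Φ7.W) (h : orderOf w = 5) : ∃ s : Finset (Fin 126), #s = 7 ∧
    ∀ y : Fin 7 → Multiplicative (ZMod 5), (∀ r, Φ7.chr y r = Φ7.chr y (w r)) → ∀ r ∈ s, Φ7.chr y r = 1 := by
  have : Fact (Nat.Prime 5) := ⟨by norm_num⟩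
  obtain ⟨u, hu, h1⟩ := exists_word7 [0, 2, 3, 4] (by decide)
  obtain ⟨g, hg, h2⟩ := exists_conj_std Φ7 (by rw [card_W7]; norm_num) hw h hu (Equiv.ext fun r =>
    Fin.ext ((Lang.pow_apply_val h1 5 r).trans (by revert r; decide +kernel)))
  refine ⟨Finset.map g.toEmbedding {93, 73, 69, 66, 29, 96, 59}, by rw [card_map]; rfl, fun y hy r hr => ?_⟩
  obtain ⟨s, hs, rfl⟩ := mem_map.1 hr
  obtain ⟨r, hr⟩ : ∃ r : Fin 126, ∀ j : Fin 7, coT tRE7 (applyW tTE7 [0, 2, 3, 4] r) j = coT tRE7 r j + coT tRE7 s j := by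
    clear hr; revert s; decide +kernel
  have h3 := chr_add Φ7 (fun j => Φ7.chr y (g (Φ7.simple j))) (k := u r) (r := r) (s := s) fun j => by
    rw [← h1] at hr; exact hr j
  have h4 := fix_zpowers hy h2 (g r)
  simp only [Φ7.chr_apply hg, Equiv.Perm.mul_apply, Equiv.Perm.coe_inv, Equiv.symm_apply_apply] at h3 h4
  exact left_eq_mul.1 (h4.trans h3)

end CfsgLib.AltSec
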