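import Mathlib
import Cfsg.Agent.Lib.AltSec.E7Tab
import Cfsg.Agent.Lib.Chev.Fast

/-!
Elements of order three and seventeen in the torus of type `E₈`: tables.
-/

set_option autoImplicit false
set_option synthInstance.maxSize 4096

namespace CfsgLib.AltSec

open CfsgLib.Weyl Cfsg.Lie

/-- a coefficient of a root plus fifty-one -/
def nb8 (r i : ℕ) : ℕ := tRE8 >>> (4 * (8 * r + i)) % 16 + 43

/-- the value of a coweight on a root -/
def val8 (l a b c d e f g h r : ℕ) : ℕ :=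
  (nb8 r 0 * a + nb8 r 1 * b + nb8 r 2 * c + nb8 r 3 * d + nb8 r 4 * e + nb8 r 5 * f + nb8 r 6 * g + nb8 r 7 * h) % l

/-- the test for order seventeen -/
noncomputable def tst17 (a b c d e f g h : ℕ) : Bool :=
  sm (fun r => Chev.force (val8 17 a b c d e f g h r) fun v => 256 ^ v + 256 ^ (17 + 3 * v % 17)) 240 % (1 + 256 ^ 17) != 0 ||
    a + b + c + d + e + f + g + h == 0

theorem chk17 : ∀ d < 3, ∀ e < (17 - 6 * d) / 5 + 1, ∀ c < (17 - 6 * d - 5 * e) / 4 + 1,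
    ∀ f < (17 - 6 * d - 5 * e - 4 * c) / 4 + 1, ∀ b < (17 - 6 * d - 5 * e - 4 * c - 4 * f) / 3 + 1,
    ∀ g < (17 - 6 * d - 5 * e - 4 * c - 4 * f - 3 * b) / 3 + 1,
    ∀ a < (17 - 6 * d - 5 * e - 4 * c - 4 * f - 3 * b - 3 * g) / 2 + 1,
    ∀ h < (17 - 6 * d - 5 * e - 4 * c - 4 * f - 3 * b - 3 * g - 2 * a) / 2 + 1, tst17 a b c d e f g h := by
  decide +kernel

/-- the number of roots killed by a coweight modulo three -/
def cnt8 (a b g h : ℕ) : ℕ := (List.range 240).countP (val8 3 a b 0 0 0 0 g h · == 0)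

theorem chk3 : cnt8 1 0 0 0 = 84 ∧ cnt8 0 1 0 0 = 72 ∧ cnt8 0 0 1 0 = 78 ∧ cnt8 0 0 0 1 = 126 ∧
    ∀ r < 240, |coT tRE8 r 0| ≤ 2 := by
  decide +kernel

end CfsgLib.AltSec
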