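import Mathlib
import Cfsg.Agent.Lib.AltSec.Small
import Cfsg.Agent.Lib.AltSec.F4Tab

/-!
Alternating sections of the groups of type `F₄`.
-/

set_option autoImplicit false

namespace CfsgLib.AltSec

open Subgroup CfsgLib.RGD CfsgLib.Twist CfsgLib.Weyl CfsgLib.Chev CfsgLib.Stein Cfsg.Lie

theorem simple_F4 : ∀ i : Fin 4, ((rootSys rtOKF4).simple (ndF4 i) : ℕ) = ![33, 27, 25, 24] i := by decide +kernel

theorem W_F4 {w : Equiv.Perm (Fin chevF4.nroots)} (hw : w ∈ (rootSys rtOKF4).W) : w ^ 8 = 1 ∨ w ^ 6 = 1 ∨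
    ∀ i j, (rootSys rtOKF4).rt ((w ^ 4) ((rootSys rtOKF4).simple i)) j + (rootSys rtOKF4).rt ((rootSys rtOKF4).simple i) j
      = (rootSys rtOKF4).rt ((w ^ 2) ((rootSys rtOKF4).simple i)) j := by
  set Φ := rootSys rtOKF4
  let a : Fin 4 → ℕ := fun i => w (Φ.simple (ndF4 i))
  have hf : ∀ i j, fmF4 (a i) (a j) = fmF4 (![33, 27, 25, 24] i) (![33, 27, 25, 24] j) := fun i j => by
    rw [← simple_F4, ← simple_F4, ← Nat.cast_inj (R := ℤ), fmF4_eq, fmF4_eq, Φ.form_apply hw]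
  have h1 : ∀ r : Fin chevF4.nroots, imgF4 (keyF4 (a 0)) (keyF4 (a 1)) (keyF4 (a 2)) (keyF4 (a 3)) r = w r := fun r => by
    rw [← lookF4_key (w r), imgF4]
    congr 1
    have e : ∀ j : Fin 4, coT tRF4 (w r) j = coT tRF4 r 0 * coT tRF4 (a 0) j + coT tRF4 r 1 * coT tRF4 (a 1) j +
        coT tRF4 r 2 * coT tRF4 (a 2) j + coT tRF4 r 3 * coT tRF4 (a 3) j := fun j =>
      (Φ.rt_apply_eq_sum hw r (ndF4 j)).trans (Fin.sum_univ_four _)
    have e0 := e 0
    have e1 := e 1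
    have e2 := e 2
    have e3 := e 3
    simp only [keyF4]
    change coT tRF4 (w r) 0 = coT tRF4 r 0 * coT tRF4 (a 0) 0 + coT tRF4 r 1 * coT tRF4 (a 1) 0 +
        coT tRF4 r 2 * coT tRF4 (a 2) 0 + coT tRF4 r 3 * coT tRF4 (a 3) 0 at e0
    change coT tRF4 (w r) 1 = coT tRF4 r 0 * coT tRF4 (a 0) 1 + coT tRF4 r 1 * coT tRF4 (a 1) 1 +
        coT tRF4 r 2 * coT tRF4 (a 2) 1 + coT tRF4 r 3 * coT tRF4 (a 3) 1 at e1
    change coT tRF4 (w r) 2 = coT tRF4 r 0 * coT tRF4 (a 0) 2 + coT tRF4 r 1 * coT tRF4 (a 1) 2 +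
        coT tRF4 r 2 * coT tRF4 (a 2) 2 + coT tRF4 r 3 * coT tRF4 (a 3) 2 at e2
    change coT tRF4 (w r) 3 = coT tRF4 r 0 * coT tRF4 (a 0) 3 + coT tRF4 r 1 * coT tRF4 (a 1) 3 +
        coT tRF4 r 2 * coT tRF4 (a 2) 3 + coT tRF4 r 3 * coT tRF4 (a 3) 3 at e3
    rw [e0, e1, e2, e3]
    ring
  have h2 := chkF4_all
  simp only [Weyl.allLt_iff, Bool.or_eq_true, bne_iff_ne] at h2
  have h3 := ((((h2 _ (w _).2).resolve_left (not_not.2 (hf 0 0)) _ (w _).2).resolve_left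
    (not_or.2 ⟨not_not.2 (hf 1 1), not_not.2 (hf 0 1)⟩) _ (w _).2).resolve_left
    (not_or.2 ⟨not_or.2 ⟨not_not.2 (hf 2 2), not_not.2 (hf 0 2)⟩, not_not.2 (hf 1 2)⟩) _ (w _).2).resolve_left
    (not_or.2 ⟨not_or.2 ⟨not_or.2 ⟨not_not.2 (hf 3 3), not_not.2 (hf 0 3)⟩, not_not.2 (hf 1 3)⟩, not_not.2 (hf 2 3)⟩)
  have hm : ∀ i : Fin chevF4.rank, (Φ.simple i : ℕ) ∈ [33, 27, 25, 24] := by decide +kernel
  simp only [chkF4, Bool.or_eq_true, List.all_eq_true, beq_iff_eq, Weyl.allLt_iff] at h3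
  rcases h3 with (h | h) | h
  · refine Or.inl (Φ.eq_one_of_pos_simple (pow_mem hw _) fun i => ?_)
    have := h _ (hm i)
    simp only [a, h1] at this
    rw [show (w ^ 8) (Φ.simple i) = Φ.simple i from Fin.ext this]
    exact Φ.pos_simple i
  · refine Or.inr (Or.inl (Φ.eq_one_of_pos_simple (pow_mem hw _) fun i => ?_))
    have := h _ (hm i)
    simp only [a, h1] at this
    rw [show (w ^ 6) (Φ.simple i) = Φ.simple i from Fin.ext this]
    exact Φ.pos_simple i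
  · refine Or.inr (Or.inr fun i j => ?_)
    have := h _ (hm i) j j.2
    simp only [a, h1] at this
    exact this

theorem bound_F4 {F : Type*} [Field F] [Fintype F] (p : ℕ) [hp : Fact p.Prime] [CharP F p] {r : ℕ}
    (h : Sec (alternatingGroup (Fin r)) (chevF4.group F)) : r ≤ 10 + (if p = 11 then 1 else 0) := by
  have hW : ∀ (K : Type) [Field K], Nat.card (twId (stSys rtOKF4 K)).W1 = 1152 := fun K _ => by
    rw [twId_W1, card_W _ hasChainF4]; rfl
  by_contra hr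
  split_ifs at hr with h11
  · obtain ⟨K, _, _, h1, h2⟩ := chev_ext rtOKF4 p (m := 35) (by decide) (by rw [h11]; decide)
      (h.alt_le (r := 12) (by omega))
    have hS := sharp_stSys rtOKF4 K
    have hM := isTw_id hS
    have : Fact (Nat.Prime 5) := ⟨by norm_num⟩
    have : Fact (Nat.Prime 7) := ⟨by norm_num⟩
    obtain ⟨a, c, b, ha, hc, hba, hbc, hac⟩ := alt12_35
    obtain ⟨X, π, j, P, Q, g, n, hn, k1, k2, k3, rfl, k4, k5, k6, k7⟩ := exists_two hM (l := 5) (m := 7)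
      (not_dvd_H hM (fun b => (twId_card hS b).symm ▸ h1.of_dvd (by norm_num)) (by rw [hW]; norm_num))
      (not_dvd_H hM (fun b => (twId_card hS b).symm ▸ h1.of_dvd (by norm_num)) (by rw [hW]; norm_num))
      (by rw [hW]; norm_num) h2 (isPGroup_zpowers (ha ▸ pow_orderOf_eq_one a))
      (isPGroup_zpowers (hc ▸ pow_orderOf_eq_one c)) (zpowers_le.2 (mem_normalizer_zpowers hac))
      (mem_normalizer_zpowers hba) (mem_normalizer_zpowers hbc)
    obtain ⟨x, hx, rfl⟩ : a ∈ P.map π := k2 ▸ mem_zpowers a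
    obtain ⟨y, hy, rfl⟩ : c ∈ Q.map π := k3 ▸ mem_zpowers c
    obtain ⟨hw, hacts⟩ := hS.wOf_spec hn.1
    rcases W_F4 hw with e | e | e
    · have := k7 8 y hy
      rw [hS.H_comm (pow_mem_H hM hn e) (k5 y hy), mul_inv_cancel_right] at this
      have := modEq_of_commute hc hbc (m := 8)
        (map_pow π g 8 ▸ Commute.map (mul_inv_eq_iff_eq_mul.1 (k1 this)) π)
      exact absurd this (by norm_num [Nat.ModEq])
    · have := k6 6 x hx
      rw [hS.H_comm (pow_mem_H hM hn e) (k4 x hx), mul_inv_cancel_right] at this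
      have := modEq_of_commute ha hba (m := 6)
        (map_pow π g 6 ▸ Commute.map (mul_inv_eq_iff_eq_mul.1 (k1 this)) π)
      exact absurd this (by norm_num [Nat.ModEq])
    · have := phi12 hS hn.1 hw hacts e (k4 x hx)
      rw [← k6 4 x hx, ← k6 2 x hx, ← map_mul] at this
      have := congrArg π (k1 this)
      simp only [map_mul, map_inv, map_pow, conj_pow_pow hba] at this
      rw [← pow_succ, pow_eq_pow_iff_modEq, ha] at this
      exact absurd this (by norm_num [Nat.ModEq])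
  · obtain ⟨K, _, _, h1, h2⟩ := chev_ext rtOKF4 p (m := 11) (by decide)
      ((Nat.coprime_primes hp.out (by norm_num)).2 h11) (h.alt_le (r := 11) (by omega))
    have hS := sharp_stSys rtOKF4 K
    have hM := isTw_id hS
    have : Fact (Nat.Prime 11) := ⟨by norm_num⟩
    exact not_sec_of_pow hM (m := 1152) (not_dvd_H hM (fun b => (twId_card hS b).symm ▸ h1) (by rw [hW]; norm_num))
      alt11_eleven (fun w hw => hW K ▸ congrArg Subtype.val (pow_card_eq_one' (x := (⟨w, hw⟩ : (twId _).W1))))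
      (show ¬ 3 ^ 1152 % 11 = 1 % 11 by decide +kernel) h2

end CfsgLib.AltSec
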