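import Mathlib

/-!
Recognition of the standard module of an alternating group.
-/

set_option autoImplicit false

namespace CfsgLib.AltSec

open Module Finset Equiv Equiv.Perm

variable {Ω : Type*} [Fintype Ω] [DecidableEq Ω]

theorem exists_move (S : Finset Ω) (h : #S + 3 ≤ Fintype.card Ω) {b c : Ω} (hb : b ∉ S) (hc : c ∉ S) :
    ∃ g : alternatingGroup Ω, (∀ i ∈ S, g.1 i = i) ∧ g.1 b = c := by
  obtain ⟨d, hd⟩ : ∃ d, d ∉ insert b (insert c S) := by
    by_contra hh
    push Not at hh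
    have := card_le_card (s := univ) fun d _ => hh d
    have := card_insert_le b (insert c S)
    have := card_insert_le c S
    rw [card_univ] at *
    omega
  simp only [mem_insert, not_or] at hd
  refine ⟨⟨swap c d * swap b d, by simp [sign_swap (Ne.symm hd.1), sign_swap (Ne.symm hd.2.1)]⟩, fun i hi => ?_, by simp⟩
  have h1 : i ≠ d := fun e => hd.2.2 (e ▸ hi)
  have h2 : i ≠ b := fun e => hb (e ▸ hi)
  have h3 : i ≠ c := fun e => hc (e ▸ hi)
  simp [swap_apply_of_ne_of_ne h2 h1, swap_apply_of_ne_of_ne h3 h1]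

theorem gen_fix (N : Subgroup (alternatingGroup Ω)) (S : Finset Ω) (h : #S + 4 ≤ Fintype.card Ω) (a : Ω)
    (h1 : ∀ g : alternatingGroup Ω, (∀ i ∈ insert a S, g.1 i = i) → g ∈ N) {u : alternatingGroup Ω} (hu : u ∈ N)
    (hu' : ∀ i ∈ S, u.1 i = i) (hu'' : u.1 a ≠ a) (g : alternatingGroup Ω) (hg : ∀ i ∈ S, g.1 i = i) : g ∈ N := by
  by_cases e : g.1 a = a
  · exact h1 g (by simpa [e] using hg)
  have h2 : ∀ g : alternatingGroup Ω, (∀ i ∈ S, g.1 i = i) → g.1 a ≠ a → g.1 a ∉ insert a S := fun g hg e h =>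
    (mem_insert.1 h).elim e fun h => e (g.1.injective (hg _ h))
  obtain ⟨w, w1, w2⟩ := exists_move (insert a S) (by have := card_insert_le a S; omega) (h2 u hu' hu'') (h2 g hg e)
  refine (N.mul_mem_cancel_left (inv_mem (mul_mem (h1 w w1) hu))).1 (h1 _ fun i hi => ?_)
  simp only [Subgroup.coe_mul, Subgroup.coe_inv, Perm.mul_apply, Perm.inv_eq_iff_eq]
  rcases mem_insert.1 hi with rfl | hi
  · exact w2.symm
  · rw [hg i hi, hu' i hi, w1 i (mem_insert_of_mem hi)]

theorem exists_three (h : 5 ≤ Fintype.card Ω) {a b c a' b' c' : Ω} (h1 : a ≠ b) (h2 : a ≠ c) (h3 : b ≠ c)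
    (h1' : a' ≠ b') (h2' : a' ≠ c') (h3' : b' ≠ c') :
    ∃ g : alternatingGroup Ω, g.1 a = a' ∧ g.1 b = b' ∧ g.1 c = c' := by
  obtain ⟨u, -, u1⟩ := exists_move ∅ (by simp; omega) (notMem_empty a) (notMem_empty a')
  obtain ⟨v, v1, v2⟩ := exists_move {a'} (by simp; omega) (b := u.1 b) (c := b') (by simp [← u1, h1.symm])
    (by simp [h1'.symm])
  have v1 := v1 a' (by simp)
  obtain ⟨w, w1, w2⟩ := exists_move {a', b'} (by have := card_le_two (a := a') (b := b'); omega) (b := v.1 (u.1 c))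
    (c := c') (by
      rw [← v2, ← v1, ← u1]
      simp [h2.symm, h3.symm]) (by simp [h2'.symm, h3'.symm])
  exact ⟨w * v * u, by simp [u1, v1, w1], by simp [v2, w1], by simp [w2]⟩

variable {k V : Type*} [Field k] [AddCommGroup V] [Module k V]

theorem exists_smul_of_line {U : Submodule k V} (hU : finrank k U = 1) {T : End k V} (hT : ∀ v ∈ U, T v ∈ U) :
    ∃ c : k, ∀ v ∈ U, T v = c • v := by
  obtain ⟨u, -, h⟩ := finrank_eq_one_iff'.1 hU
  obtain ⟨c, hc⟩ := h ⟨_, hT u u.2⟩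
  refine ⟨c, fun v hv => ?_⟩
  obtain ⟨d, hd⟩ := h ⟨v, hv⟩
  rw [show v = d • (u : V) from congrArg Subtype.val hd.symm, map_smul,
    show T u = c • (u : V) from congrArg Subtype.val hc.symm, smul_comm]

/-- the stabiliser of a subspace -/
def stab {X : Type*} [Group X] [Finite X] (ρ : X →* End k V) (U : Submodule k V) : Subgroup X where
  carrier := {g | ∀ v ∈ U, ρ g v ∈ U}
  one_mem' := by simp
  mul_mem' ha hb v hv := by simpa using ha _ (hb v hv)
  inv_mem' {g} hg := by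
    have : ∀ n, ∀ v ∈ U, ρ (g ^ n) v ∈ U := fun n => by
      induction n with
      | zero => simp
      | succ n ih => exact fun v hv => by simpa [pow_succ] using ih _ (hg v hv)
    rw [eq_comm.1 (eq_inv_of_mul_eq_one_left (a := g ^ (orderOf g - 1)) (by
      rw [← pow_succ, Nat.sub_add_cancel (orderOf_pos g), pow_orderOf_eq_one]))]
    exact this _

/-- the pointwise stabiliser of a set of vectors -/
def fixer {X : Type*} [Group X] (ρ : X →* End k V) (U : Set V) : Subgroup X where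
  carrier := {g | ∀ v ∈ U, ρ g v = v}
  one_mem' := by simp
  mul_mem' ha hb v hv := by rw [map_mul, End.mul_apply, hb v hv, ha v hv]
  inv_mem' {g} hg v hv := by
    conv_lhs => rw [← hg v hv, ← End.mul_apply, ← map_mul, inv_mul_cancel, map_one, End.one_apply]

theorem comm_fix {X : Type*} [Group X] [Finite X] (ρ : X →* End k V) {U : Submodule k V} (hU : finrank k U = 1)
    {a b : X} (ha : a ∈ stab ρ U) (hb : b ∈ stab ρ U) : a * b * a⁻¹ * b⁻¹ ∈ fixer ρ U := fun v hv => by
  obtain ⟨c, hc⟩ := exists_smul_of_line hU ha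
  obtain ⟨d, hd⟩ := exists_smul_of_line hU hb
  have h1 := mul_mem (inv_mem ha) (inv_mem hb) v hv
  calc ρ (a * b * a⁻¹ * b⁻¹) v = ρ a (ρ b (ρ (a⁻¹ * b⁻¹) v)) := by simp
    _ = ρ b (ρ a (ρ (a⁻¹ * b⁻¹) v)) := by rw [hd _ h1, map_smul, hc _ h1, map_smul, hd _ h1, smul_comm]
    _ = v := by rw [← End.mul_apply, ← End.mul_apply, ← map_mul, ← map_mul]; simp

theorem mem_of_comm (p : Ω → Prop) [DecidablePred p] (h : 5 ≤ Fintype.card {x // p x})
    (N : Subgroup (alternatingGroup Ω)) (hN : ∀ a b : alternatingGroup Ω, (∀ i, ¬ p i → a.1 i = i) →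
      (∀ i, ¬ p i → b.1 i = i) → a * b * a⁻¹ * b⁻¹ ∈ N)
    (g : alternatingGroup Ω) (hg : ∀ i, ¬ p i → g.1 i = i) : g ∈ N := by
  let φ : alternatingGroup {x // p x} →* alternatingGroup Ω :=
    (ofSubtype.comp (alternatingGroup _).subtype).codRestrict _ fun g => (sign_ofSubtype g.1).trans g.2
  have h1 : ∀ g i, ¬ p i → (φ g).1 i = i := fun g i hi => ofSubtype_apply_of_not_mem g.1 hi
  have h2 : commutator _ ≤ N.comap φ := Subgroup.commutator_le.2 fun a _ b _ => by
    simpa [commutatorElement_def] using hN _ _ (h1 a) (h1 b)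
  have h3 : ∀ x, p (g.1 x) ↔ p x := fun x =>
    not_iff_not.1 ⟨fun h => g.1.injective (hg _ h) ▸ h, fun h => (hg x h).symm ▸ h⟩
  have h4 := ofSubtype_subtypePerm h3 fun x hx => not_not.1 fun h => hx (hg x h)
  rw [commutator_alternatingGroup_eq_top (by rwa [Nat.card_eq_fintype_card])] at h2
  have h5 : g.1.subtypePerm h3 ∈ alternatingGroup _ :=
    (sign_ofSubtype (g.1.subtypePerm h3)).symm.trans (by rw [h4]; exact g.2)
  have h6 : φ ⟨_, h5⟩ = g := Subtype.ext h4
  rw [← h6]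
  exact h2 (Subgroup.mem_top _)

theorem fix_of_line (ρ : alternatingGroup Ω →* End k V) (S : Finset Ω) (h : #S + 5 ≤ Fintype.card Ω)
    {U : Submodule k V} (hU : finrank k U = 1) (hinv : ∀ g : alternatingGroup Ω, (∀ i ∈ S, g.1 i = i) → g ∈ stab ρ U)
    (g : alternatingGroup Ω) (hg : ∀ i ∈ S, g.1 i = i) : g ∈ fixer ρ U :=
  mem_of_comm (· ∉ S) (by rw [Fintype.card_subtype_compl, Fintype.card_coe]; omega) _
    (fun a b ha hb => comm_fix ρ hU (hinv a (by simpa using ha)) (hinv b (by simpa using hb))) g (by simpa using hg)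

theorem std_bound [FiniteDimensional k V] (ρ : alternatingGroup Ω →* End k V) (h5 : 5 ≤ Fintype.card Ω) {p₀ p₁ p₂ : Ω}
    (n1 : p₀ ≠ p₁) (n2 : p₀ ≠ p₂) (n3 : p₁ ≠ p₂) {v : V} (hv : v ≠ 0)
    (h1 : ∀ g : alternatingGroup Ω, g.1 p₀ = p₀ → g.1 p₁ = p₁ → ρ g v = v) {s : alternatingGroup Ω}
    (s0 : s.1 p₀ = p₁) (s1 : s.1 p₁ = p₀) (hs : ρ s v = -v) {x : alternatingGroup Ω} (x0 : x.1 p₀ = p₁)
    (x1 : x.1 p₁ = p₂) (x2 : x.1 p₂ = p₀) (hx : v + ρ x v + ρ x (ρ x v) = 0) (p : ℕ) [CharP k p] :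
    Fintype.card Ω - 1 - (if p ∣ Fintype.card Ω then 1 else 0) ≤ finrank k V := by
  classical
  let a : Ω → Ω → V := fun i j =>
    if h : ∃ g : alternatingGroup Ω, g.1 p₀ = i ∧ g.1 p₁ = j then ρ h.choose v else 0
  have a1 : ∀ g : alternatingGroup Ω, a (g.1 p₀) (g.1 p₁) = ρ g v := fun g => by
    have h : ∃ g' : alternatingGroup Ω, g'.1 p₀ = g.1 p₀ ∧ g'.1 p₁ = g.1 p₁ := ⟨g, rfl, rfl⟩
    simp only [a, dif_pos h]
    conv_rhs => rw [← h1 (g⁻¹ * h.choose) (by simp [h.choose_spec.1]) (by simp [h.choose_spec.2]), ← End.mul_apply,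
      ← map_mul, mul_inv_cancel_left]
  have a2 : ∀ i, a i i = 0 := fun i => dif_neg fun ⟨g, e1, e2⟩ => n1 (g.1.injective (e1.trans e2.symm))
  have a3 : ∀ S : Finset Ω, #S ≤ 4 → ∃ l, l ∉ S := fun S hS => by
    by_contra hh
    push Not at hh
    have := card_le_card (s := univ) fun d _ => hh d
    rw [card_univ] at this
    omega
  have a4 : ∀ i j, i ≠ j → ∃ g : alternatingGroup Ω, g.1 p₀ = i ∧ g.1 p₁ = j := fun i j h => by
    obtain ⟨l, hl⟩ := a3 {i, j} (card_le_two.trans (by omega))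
    simp only [mem_insert, mem_singleton, not_or] at hl
    obtain ⟨g, e1, e2, -⟩ := exists_three h5 n1 n2 n3 h (Ne.symm hl.1) (Ne.symm hl.2)
    exact ⟨g, e1, e2⟩
  have a5 : ∀ (g : alternatingGroup Ω) i j, ρ g (a i j) = a (g.1 i) (g.1 j) := fun g i j => by
    by_cases h : i = j
    · rw [h, a2, a2, map_zero]
    obtain ⟨u, rfl, rfl⟩ := a4 i j h
    rw [a1, ← End.mul_apply, ← map_mul, ← a1]; rfl
  have a6 : a p₀ p₁ = v := by simpa using a1 1
  have a7 : ∀ i j, a j i = -a i j := fun i j => by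
    by_cases h : i = j
    · rw [h, a2, neg_zero]
    obtain ⟨u, rfl, rfl⟩ := a4 i j h
    rw [a1, ← map_neg, ← hs, ← a5, ← a6, a5 s, s0, s1]
  have a8 : ∀ i j l, a i j + a j l = a i l := fun i j l => by
    by_cases e1 : i = j
    · rw [e1, a2, zero_add]
    by_cases e2 : j = l
    · rw [e2, a2, add_zero]
    by_cases e3 : i = l
    · rw [e3, a2, a7 l j, add_neg_cancel]
    obtain ⟨u, rfl, rfl, rfl⟩ := exists_three h5 n1 n2 n3 e1 e3 e2
    rw [← a6, a5, a5, x0, x1, x2, a7 p₀ p₂, add_neg_eq_zero] at hx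
    rw [← a5, ← a5, ← a5, ← map_add, hx]
  have a9 : ∀ i j, i ≠ j → a i j ≠ 0 := fun i j h e => by
    obtain ⟨u, rfl, rfl⟩ := a4 i j h
    have := congrArg (ρ u⁻¹) e
    rw [a5, map_zero] at this
    exact hv (by simpa [a6] using this)
  let T : (Ω → k) →ₗ[k] V × k := (Fintype.linearCombination k (a p₀)).prod (Fintype.linearCombination k fun _ => 1)
  have t1 : ∀ c, T c = 0 ↔ ∑ i, c i • a p₀ i = 0 ∧ ∑ i, c i = 0 := fun c => by
    simp [T, Fintype.linearCombination_apply, Prod.ext_iff]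
  have t2 : ∀ (c : Ω → k) u, ∑ i, c i = 0 → ∑ i, c i • a u i = ∑ i, c i • a p₀ i := fun c u h => by
    rw [sum_congr rfl fun i _ => by rw [← a8 u p₀ i, smul_add], sum_add_distrib, ← sum_smul, h, zero_smul, zero_add]
  have t3 : ∀ c, T c = 0 → ∀ i j, c i = c j := fun c hc i j => by
    by_contra h
    have hij : i ≠ j := fun e => h (by rw [e])
    obtain ⟨l, hl⟩ := a3 {i, j} (card_le_two.trans (by omega))
    obtain ⟨m, hm⟩ := a3 {i, j, l} (card_le_three.trans (by omega))
    simp only [mem_insert, mem_singleton, not_or] at hl hm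
    obtain ⟨c1, c2⟩ := (t1 c).1 hc
    have e : ∀ l, l ≠ i → l ≠ j → c i • a i j + c j • a j l + c l • a l i = 0 := fun l l1 l2 => by
      let g : alternatingGroup Ω := ⟨swap i l * swap i j, by simp [sign_swap hij, sign_swap l1.symm]⟩
      have e1 := congrArg (ρ g) c1
      simp only [map_sum, map_smul, a5, map_zero] at e1
      have e2 : ∑ m, c m • a m (g.1 m) = 0 := by
        have : ∀ m, a m (g.1 m) = a (g.1 p₀) (g.1 m) - a (g.1 p₀) m := fun m => by
          rw [← a8 (g.1 p₀) m (g.1 m), add_sub_cancel_left]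
        simp only [this, smul_sub, sum_sub_distrib, e1, t2 c _ c2, c1, sub_zero]
      rw [← sum_subset (subset_univ {i, j, l}) fun m _ hm => by
        simp only [mem_insert, mem_singleton, not_or] at hm
        simp [g, swap_apply_of_ne_of_ne hm.1 hm.2.1, swap_apply_of_ne_of_ne hm.1 hm.2.2, a2],
        sum_insert (by simp [hij, l1.symm]), sum_pair l2.symm, ← add_assoc] at e2
      simpa [g, swap_apply_of_ne_of_ne hij.symm l2.symm, swap_apply_of_ne_of_ne l1 l2] using e2
    have e' : ∀ l, l ≠ i → l ≠ j → (c i - c j) • a i j = (c l - c j) • a i l := fun l l1 l2 => by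
      have := e l l1 l2
      rw [← a8 j i l, a7 i l, a7 i j] at this
      linear_combination (norm := module) this
    obtain ⟨g, g1, g2⟩ := exists_move {i, l} (by have := card_le_two (a := i) (b := l); omega) (b := j) (c := m)
      (by simp [hij.symm, Ne.symm hl.2]) (by simp [hm])
    have e3 := congrArg (ρ g) (e' l hl.1 hl.2)
    rw [map_smul, map_smul, a5, a5, g1 i (by simp), g1 l (by simp), g2, ← e' l hl.1 hl.2, ← a8 i j m, smul_add,
      add_eq_left] at e3
    exact (smul_eq_zero.1 e3).elim (fun e => h (sub_eq_zero.1 e)) (a9 _ _ (Ne.symm hm.2.1))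
  have t4 : finrank k (LinearMap.ker T) ≤ if p ∣ Fintype.card Ω then 1 else 0 := by
    split_ifs with h
    · refine (Submodule.finrank_mono (t := k ∙ (1 : Ω → k)) fun c hc => ?_).trans (finrank_span_le_card _ |>.trans (by simp))
      exact Submodule.mem_span_singleton.2 ⟨c p₀, funext fun i => by simpa using t3 c hc p₀ i⟩
    · refine (Submodule.finrank_eq_zero.2 (eq_bot_iff.2 fun c hc => funext fun i => ?_)).le
      have := ((t1 c).1 hc).2
      rw [sum_congr rfl fun j _ => t3 c hc j i, sum_const, card_univ, nsmul_eq_mul] at this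
      exact (mul_eq_zero.1 this).resolve_left fun e => h ((CharP.cast_eq_zero_iff k p _).1 e)
  have t5 := T.finrank_range_add_finrank_ker
  have t6 := (LinearMap.range T).finrank_le
  rw [finrank_prod, finrank_self] at t6
  rw [finrank_fintype_fun_eq_card] at t5
  omega

end CfsgLib.AltSec
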