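import Mathlib
import Cfsg.Agent.Lib.AltSec.GLS
import Cfsg.Agent.Lib.AltSec.Perms

/-!
Modules for alternating groups on which three-cycles or double transpositions act with small rank.
-/

set_option autoImplicit false

namespace CfsgLib.AltSec

open Module Finset Equiv Equiv.Perm

variable {Ω : Type*} [Fintype Ω] [DecidableEq Ω] {k V : Type*} [Field k] [AddCommGroup V] [Module k V]
  [FiniteDimensional k V]

theorem finrank_eig_conj {X : Type*} [Group X] (ρ : X →* End k V) (a b : X) (c : k) :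
    finrank k ((ρ a).eigenspace c) ≤ finrank k ((ρ (b * a * b⁻¹)).eigenspace c) := by
  refine LinearMap.finrank_le_finrank_of_injective (f := (ρ b).restrict fun v hv => ?_) fun u v h => Subtype.ext ?_
  · rw [End.mem_eigenspace_iff] at hv ⊢
    rw [← End.mul_apply, ← map_mul, inv_mul_cancel_right, map_mul, End.mul_apply, hv, map_smul]
  · simpa [← End.mul_apply, ← map_mul] using congrArg (fun w => ρ b⁻¹ w.1) h

variable (ρ : alternatingGroup Ω →* End k V) (e : Fin 9 ↪ Ω) (ι : alternatingGroup (Fin 9) →* alternatingGroup Ω)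
  (i1 : ∀ g a, (ι g).1 (e a) = e (g.1 a)) (i2 : ∀ g b, b ∉ Set.range e → (ι g).1 b = b)
include i1 i2

theorem comm_emb (a : alternatingGroup (Fin 9)) (L : Finset (Fin 9)) (h : ∀ j ∉ L, a.1 j = j) {g : alternatingGroup Ω}
    (hg : ∀ i ∈ L.map e, g.1 i = i) : Commute g (ι a) := Subtype.ext (Perm.Disjoint.commute fun x => by
  by_cases hx : x ∈ Set.range e
  · obtain ⟨j, rfl⟩ := hx
    by_cases hj : j ∈ L
    exacts [Or.inl (hg _ (mem_map_of_mem e hj)), Or.inr (by rw [i1, h j hj])]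
  · exact Or.inr (i2 _ _ hx))

omit i2 in
theorem fix_emb (a : alternatingGroup (Fin 9)) (L : Finset (Fin 9)) (h : ∀ j ∈ L, a.1 j = j) :
    ∀ i ∈ L.map e, (ι a).1 i = i := by
  simp only [mem_map]
  rintro _ ⟨j, hj, rfl⟩
  rw [i1, h j hj]

omit i2 in
theorem fix_conj (b : alternatingGroup (Fin 9)) (L L' : Finset (Fin 9)) (h : ∀ j ∈ L, b.1 j ∈ L') {g : alternatingGroup Ω}
    (hg : ∀ i ∈ L'.map e, g.1 i = i) : ∀ i ∈ L.map e, ((ι b)⁻¹ * g * ι b).1 i = i := by
  simp only [mem_map]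
  rintro _ ⟨j, hj, rfl⟩
  simp only [Subgroup.coe_mul, Subgroup.coe_inv, Perm.mul_apply, Perm.inv_eq_iff_eq, i1]
  exact hg _ (mem_map_of_mem e (h j hj))

theorem lin3 [CharP k 2] {ω : k} (h1 : ω ^ 2 + ω + 1 = 0)
    (hU : finrank k ((ρ (ι (ev [(0, 2), (0, 1)] (by decide +kernel)))).eigenspace ω) = 1)
    (hU' : finrank k ((ρ (ι (ev [(0, 2), (0, 1)] (by decide +kernel)))).eigenspace (ω ^ 2)) = 1) :
    Fintype.card Ω - 1 - (if 2 ∣ Fintype.card Ω then 1 else 0) ≤ finrank k V := by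
  have h9 : 9 ≤ Fintype.card Ω := by simpa using Fintype.card_le_of_embedding e
  have h2 : (2 : k) = 0 := CharP.cast_eq_zero k 2
  set x₀ : alternatingGroup (Fin 9) := ev [(0, 2), (0, 1)] (by decide +kernel) with hx₀
  have r1 : ∀ a b v, ρ (ι a) (ρ (ι b) v) = ρ (ι (a * b)) v := fun a b v => by simp
  have a1 : ∀ c, finrank k ((ρ (ι x₀)).eigenspace c) = 1 → ∀ g : alternatingGroup Ω,
      (∀ i ∈ ({0, 1, 2} : Finset _).map e, g.1 i = i) → ∀ v, ρ (ι x₀) v = c • v → ρ g v = v := fun c hc g hg v hv =>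
    fix_of_line ρ _ (by simpa using (by omega : 8 ≤ _)) hc (fun g hg v hv => by
      rw [End.mem_eigenspace_iff] at hv ⊢
      rw [← End.mul_apply, ← map_mul, ← comm_emb e ι i1 i2 x₀ _ (by decide +kernel) hg, map_mul, End.mul_apply, hv,
        map_smul]) g hg v (End.mem_eigenspace_iff.2 hv)
  let W : alternatingGroup (Fin 9) → V → Prop := fun a v => v + ρ (ι a) v + ρ (ι (a * a)) v = 0
  have w1 : ∀ a b v, W a v → W (b * a * b⁻¹) (ρ (ι b) v) := fun a b v h => by
    simpa [W, r1, mul_add, mul_assoc, -map_mul] using congrArg (ρ (ι b)) h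
  have w2 : ∀ a v, a * (a * a) = 1 → W a (ρ (ι a) v - v) := fun a v h => by
    simp only [W, map_sub, r1, h, mul_assoc, map_one, End.one_apply]; abel
  have a2 : ∀ g : alternatingGroup Ω, (∀ i ∈ ({0, 1, 2} : Finset _).map e, g.1 i = i) → ∀ v, W x₀ v → ρ g v = v :=
    fun g hg v hv => by
    simp only [W, ← r1] at hv
    have e1 := a1 _ hU g hg (ρ (ι x₀) v - ω ^ 2 • v) (by
      rw [map_sub, map_smul]; linear_combination (norm := module) hv + (ω - 1) • (h1 • v) - h1 • ρ (ι x₀) v)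
    have e2 := a1 _ hU' g hg (ρ (ι x₀) v - ω • v) (by
      rw [map_sub, map_smul]; linear_combination (norm := module) hv + (ω - 1) • (h1 • v) - h1 • ρ (ι x₀) v)
    rw [map_sub, map_smul] at e1 e2
    linear_combination (norm := module) e1 - e2 - (h1 - (ω ^ 2 + 1) * h2) • (ρ g v - v)
  let s : alternatingGroup (Fin 9) := ev [(2, 3), (4, 5)] (by decide +kernel)
  have a3 : ∀ g : alternatingGroup Ω, (∀ i ∈ ({0, 1, 3} : Finset _).map e, g.1 i = i) → ∀ v,
      W (s * x₀ * s⁻¹) v → ρ g v = v := fun g hg v hv => by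
    have := a2 _ (fix_conj e ι i1 s _ _ (by decide +kernel) hg) _ (by simpa [mul_assoc] using w1 _ s⁻¹ _ hv)
    simpa [← End.mul_apply, ← map_mul] using congrArg (ρ (ι s)) this
  obtain ⟨v, v0, v1, v2⟩ : ∃ v ≠ 0, W x₀ v ∧ W (s * x₀ * s⁻¹) v := by
    by_contra hh
    push Not at hh
    have b1 : (ρ (ι (x₀⁻¹ * (s * x₀ * s⁻¹)))).eigenspace 1 ≤ (ρ (ι x₀)).eigenspace 1 := fun v hv => by
      rw [End.mem_eigenspace_iff, one_smul] at hv ⊢
      by_contra h
      refine hh _ (sub_ne_zero.2 h) (w2 _ _ (by decide +kernel)) ?_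
      conv_rhs => rw [← hv, r1, mul_inv_cancel_left, hv]
      exact w2 _ _ (by decide +kernel)
    let b : alternatingGroup (Fin 9) := ev [(0, 3), (1, 2)] (by decide +kernel)
    have b2 := Submodule.eq_of_le_of_finrank_le b1 ((finrank_eig_conj ρ _ (ι b) 1).trans_eq (by
      rw [← map_inv, ← map_mul, ← map_mul, show b * x₀ * b⁻¹ = x₀⁻¹ * (s * x₀ * s⁻¹) by decide +kernel]))
    let N := (fixer ρ {v | ρ (ι x₀) v = v}).comap ι
    have b3 : s * x₀ * s⁻¹ ∈ N := fun v hv => by
      have := b2.ge (End.mem_eigenspace_iff.2 (hv.trans (one_smul _ _).symm))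
      rw [End.mem_eigenspace_iff, one_smul] at this
      have := congrArg (ρ (ι x₀)) this
      rwa [r1, mul_inv_cancel_left, hv] at this
    let y : alternatingGroup (Fin 9) := ev [(3, 5), (3, 4)] (by decide +kernel)
    have b4 : ∀ a ∈ N, y * a * y⁻¹ ∈ N := fun a ha v hv => by
      have := ha (ρ (ι y⁻¹) v) (by
        rw [Set.mem_ofPred_eq, r1, show x₀ * y⁻¹ = y⁻¹ * x₀ by decide +kernel, ← r1, hv])
      rw [← r1, ← r1, this, r1, mul_inv_cancel, map_one, map_one, End.one_apply]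
    have b5 : y ∈ N := by
      have u3 := b3
      have u4 := b4 _ u3
      have u5 := b4 _ u4
      convert mul_mem (mul_mem (mul_mem (inv_mem u3) u5) (inv_mem u3))
        (mul_mem (mul_mem (inv_mem u3) u4) (inv_mem u3)) using 1
      decide +kernel
    obtain ⟨⟨u, hu⟩, u0, -⟩ := finrank_eq_one_iff'.1 hU
    rw [End.mem_eigenspace_iff] at hu
    let g : alternatingGroup (Fin 9) := ev [(0, 3), (1, 4), (2, 5), (6, 7)] (by decide +kernel)
    have b6 := b5 (ρ (ι g) u) (by
      rw [Set.mem_ofPred_eq, r1, show x₀ * g = g * y by decide +kernel, ← r1,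
        a1 _ hU _ (fix_emb e ι i1 y _ (by decide +kernel)) u hu])
    rw [r1, show y * g = g * x₀ by decide +kernel, ← r1, hu] at b6
    have b7 := congrArg (ρ (ι g⁻¹)) b6
    simp only [r1, inv_mul_cancel, map_one, End.one_apply] at b7
    refine u0 (Subtype.ext (?_ : u = 0))
    linear_combination (norm := module) (ω + 2) • b7 - (h1 - 2 * h2) • u
  let t : alternatingGroup (Fin 9) := ev [(0, 1), (2, 3)] (by decide +kernel)
  have w3 : ∀ a v, a * a * (a * a) = a → W a v → W (a * a) v := fun a v h hv => by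
    change v + _ + ρ (ι (a * a * (a * a))) v = 0
    rw [h, add_right_comm]
    exact hv
  obtain ⟨v, v0, v1, v2, v3⟩ : ∃ v ≠ 0, W x₀ v ∧ W (s * x₀ * s⁻¹) v ∧ ρ (ι t) v = -v := by
    by_cases h : ρ (ι t) v = -v
    · exact ⟨v, v0, v1, v2, h⟩
    have e1 := w3 _ _ (by decide +kernel) (w1 _ t _ v1)
    have e2 := w3 _ _ (by decide +kernel) (w1 _ t _ v2)
    rw [show t * x₀ * t⁻¹ * (t * x₀ * t⁻¹) = s * x₀ * s⁻¹ by decide +kernel] at e1
    rw [show t * (s * x₀ * s⁻¹) * t⁻¹ * (t * (s * x₀ * s⁻¹) * t⁻¹) = x₀ by decide +kernel] at e2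
    refine ⟨v + ρ (ι t) v, fun e => h (eq_neg_of_add_eq_zero_right e), ?_, ?_, ?_⟩
    · simp only [W, map_add] at *
      linear_combination (norm := module) v1 + e2
    · simp only [W, map_add] at *
      linear_combination (norm := module) v2 + e1
    · rw [map_add, r1, show t * t = 1 by decide +kernel, map_one, map_one, End.one_apply]
      linear_combination (norm := module) h2 • (v + ρ (ι t) v)
  let u : alternatingGroup (Fin 9) := ev [(2, 4), (2, 5)] (by decide +kernel)
  have a4 := gen_fix (fixer ρ {v}) (({0, 1} : Finset _).map e) (by simpa using (by omega : 6 ≤ _)) (e 2)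
    (fun g hg _ h => h ▸ a2 g (by simpa [and_comm, and_left_comm, and_assoc] using hg) v v1) (u := ι u)
    (fun _ h => h ▸ a3 _ (fix_emb e ι i1 u _ (by decide +kernel)) v v2) (fix_emb e ι i1 u _ (by decide +kernel))
    (by rw [i1, e.injective.ne_iff]; decide +kernel)
  exact std_bound ρ (by omega) (p₀ := e 0) (p₁ := e 1) (p₂ := e 2) (by simp) (by simp) (by simp) v0
    (fun g g0 g1 => a4 g (by simp [g0, g1]) v rfl) (i1 _ _) (i1 _ _) v3 (i1 x₀ _) (i1 _ _) (i1 _ _)
    (by simpa [W] using v1) 2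

theorem lin4 (p : ℕ) [CharP k p] (h2 : (2 : k) ≠ 0) {U : k → Submodule k V} (hU : finrank k (U 1) = 1)
    (hU' : finrank k (U (-1)) = 1) (h : ∀ c v, v ∈ U c ↔ ρ (ι (ev [(0, 1), (2, 3)] (by decide +kernel))) v = -v ∧
      ρ (ι (ev [(0, 2), (1, 3)] (by decide +kernel))) v = c • v) :
    Fintype.card Ω - 1 - (if p ∣ Fintype.card Ω then 1 else 0) ≤ finrank k V := by
  have h9 : 9 ≤ Fintype.card Ω := by simpa using Fintype.card_le_of_embedding e
  set t : alternatingGroup (Fin 9) := ev [(0, 1), (2, 3)] (by decide +kernel) with ht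
  set u : alternatingGroup (Fin 9) := ev [(0, 2), (1, 3)] (by decide +kernel) with hu
  have r1 : ∀ a b v, ρ (ι a) (ρ (ι b) v) = ρ (ι (a * b)) v := fun a b v => by simp
  have r2 : ∀ v : V, v + v = 0 → v = 0 := fun v hv =>
    (smul_eq_zero.1 ((two_smul k v).trans hv)).resolve_left h2
  have a1 : ∀ c, finrank k (U c) = 1 → ∀ g : alternatingGroup Ω,
      (∀ i ∈ ({0, 1, 2, 3} : Finset _).map e, g.1 i = i) → ∀ v ∈ U c, ρ g v = v := fun c hc =>
    fix_of_line ρ _ (by simpa using (by omega : 9 ≤ _)) hc fun g hg v hv => by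
      rw [h] at hv ⊢
      rw [← End.mul_apply, ← End.mul_apply, ← map_mul, ← map_mul, ← comm_emb e ι i1 i2 t _ (by decide +kernel) hg,
        ← comm_emb e ι i1 i2 u _ (by decide +kernel) hg, map_mul, map_mul, End.mul_apply, End.mul_apply, hv.1, hv.2,
        map_smul, map_neg]
      exact ⟨rfl, rfl⟩
  have a0 : ∀ v, ρ (ι t) v = -v → v + ρ (ι u) v ∈ U 1 ∧ v - ρ (ι u) v ∈ U (-1) := fun v hv => by
    have e1 : ρ (ι t) (ρ (ι u) v) = -ρ (ι u) v := by
      rw [r1, show t * u = u * t by decide +kernel, ← r1, hv, map_neg]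
    have e2 : ρ (ι u) (ρ (ι u) v) = v := by rw [r1, show u * u = 1 by decide +kernel]; simp
    simp [h, hv, e1, e2, add_comm, sub_eq_add_neg]
  have a2 : ∀ g : alternatingGroup Ω, (∀ i ∈ ({0, 1, 2, 3} : Finset _).map e, g.1 i = i) → ∀ v, ρ (ι t) v = -v →
      ρ g v = v := fun g hg v hv => by
    have e1 := a1 _ hU g hg _ (a0 v hv).1
    have e2 := a1 _ hU' g hg _ (a0 v hv).2
    rw [map_add] at e1
    rw [map_sub] at e2
    exact sub_eq_zero.1 (r2 _ (by linear_combination (norm := module) e1 + e2))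
  let s : alternatingGroup (Fin 9) := ev [(2, 4), (3, 5)] (by decide +kernel)
  have a3 : ∀ g : alternatingGroup Ω, (∀ i ∈ ({0, 1, 4, 5} : Finset _).map e, g.1 i = i) → ∀ v,
      ρ (ι (s * t * s⁻¹)) v = -v → ρ g v = v := fun g hg v hv => by
    have := a2 _ (fix_conj e ι i1 s _ _ (by decide +kernel) hg) (ρ (ι s⁻¹) v) (by
      rw [← map_neg, ← hv, r1, r1]; simp [mul_assoc])
    simpa [← End.mul_apply, ← map_mul] using congrArg (ρ (ι s)) this
  obtain ⟨v, v0, v1, v2⟩ : ∃ v ≠ 0, ρ (ι t) v = -v ∧ ρ (ι (s * t * s⁻¹)) v = -v := by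
    by_contra hh
    push Not at hh
    have b0 : ∀ a b : alternatingGroup (Fin 9), a * b = b * a → b * b = 1 →
        (∀ v ≠ 0, ρ (ι a) v = -v → ρ (ι b) v ≠ -v) →
        (ρ (ι a)).eigenspace (-1) ≤ (ρ (ι (a * b))).eigenspace (-1) := fun a b e1 e2 hh v hv => by
      rw [End.mem_eigenspace_iff, neg_one_smul] at hv ⊢
      rw [← r1, ← hv]
      congr 1
      by_contra e3
      refine hh _ (sub_ne_zero.2 e3) ?_ ?_
      · rw [map_sub, r1, e1, ← r1, hv, map_neg]; abel
      · rw [map_sub, r1, e2]; simp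
    have b1 := sup_le (b0 t _ (by decide +kernel) (by decide +kernel) hh) ((b0 _ t (by decide +kernel)
      (by decide +kernel) fun v v0 e1 e2 => hh v v0 e2 e1).trans_eq (by
        rw [show s * t * s⁻¹ * t = t * (s * t * s⁻¹) by decide +kernel]))
    have b2 := Submodule.finrank_sup_add_finrank_inf_eq ((ρ (ι t)).eigenspace (-1))
      ((ρ (ι (s * t * s⁻¹))).eigenspace (-1))
    rw [show (ρ (ι t)).eigenspace (-1) ⊓ _ = ⊥ from eq_bot_iff.2 fun v hv => by_contra fun v0 =>
      hh v v0 (by simpa using hv.1) (by simpa using hv.2), finrank_bot] at b2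
    let b : alternatingGroup (Fin 9) := ev [(0, 4), (1, 5)] (by decide +kernel)
    have b3 := finrank_eig_conj ρ (ι (t * (s * t * s⁻¹))) (ι (s * b)) (-1)
    rw [← map_inv, ← map_mul, ← map_mul, show s * b * (t * (s * t * s⁻¹)) * (s * b)⁻¹ = s * t * s⁻¹ by
      decide +kernel] at b3
    have b4 := Submodule.finrank_mono b1
    have b5 := Submodule.finrank_mono (s := U 1) (t := (ρ (ι t)).eigenspace (-1)) fun v hv => by
      simpa using ((h _ _).1 hv).1
    omega
  let y : alternatingGroup (Fin 9) := ev [(3, 6), (3, 7)] (by decide +kernel)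
  let y' : alternatingGroup (Fin 9) := ev [(2, 6), (2, 7)] (by decide +kernel)
  have a4 := gen_fix (fixer ρ {v}) (({0, 1} : Finset _).map e) (by simpa using (by omega : 6 ≤ _)) (e 2)
    (fun g hg => gen_fix (fixer ρ {v}) (({0, 1, 2} : Finset _).map e) (by simpa using (by omega : 7 ≤ _)) (e 3)
      (fun g hg _ h => h ▸ a2 g (by simpa [and_comm, and_left_comm, and_assoc] using hg) v v1) (u := ι y)
      (fun _ h => h ▸ a3 _ (fix_emb e ι i1 y _ (by decide +kernel)) v v2) (fix_emb e ι i1 y _ (by decide +kernel))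
      (by rw [i1, e.injective.ne_iff]; decide +kernel) g (by simpa [and_comm, and_left_comm, and_assoc] using hg)) (u := ι y')
    (fun _ h => h ▸ a3 _ (fix_emb e ι i1 y' _ (by decide +kernel)) v v2) (fix_emb e ι i1 y' _ (by decide +kernel))
    (by rw [i1, e.injective.ne_iff]; decide +kernel)
  have a5 : ∀ a : alternatingGroup (Fin 9), (∀ j ∈ ({0, 1} : Finset _), a.1 j = j) → ρ (ι a) v = v := fun a ha =>
    a4 _ (fix_emb e ι i1 a _ ha) v rfl
  let x : alternatingGroup (Fin 9) := ev [(0, 4), (0, 1)] (by decide +kernel)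
  let z : alternatingGroup (Fin 9) := ev [(2, 3), (5, 6)] (by decide +kernel)
  refine std_bound ρ (by omega) (p₀ := e 0) (p₁ := e 1) (p₂ := e 4) (by simp) (by simp) (by simp) v0
    (fun g g0 g1 => a4 g (by simp [g0, g1]) v rfl) (i1 _ _) (i1 _ _) v1 (i1 x _) (i1 _ _) (i1 _ _) ?_ p
  generalize hw : v + ρ (ι x) v + ρ (ι x) (ρ (ι x) v) = w
  replace hw := hw.symm
  have c1 := a5 z (by decide +kernel)
  have c2 : ρ (ι z) (ρ (ι u) v) = -ρ (ι u) v := by
    rw [r1, show z * u = u * t * (t * u * z * u) by decide +kernel, ← r1, a5 _ (by decide +kernel), ← r1, v1, map_neg]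
  have c3 : ρ (ι z) w = w := by
    simp only [hw, map_add, r1, show z * x = x * z by decide +kernel, show z * (x * x) = x * x * z by decide +kernel]
    simp only [← r1, c1]
  have c4 : ρ (ι t) w = -w := by
    simp only [hw, map_add, r1, show t * x = x * x * t by decide +kernel, show t * (x * x) = x * t by decide +kernel]
    simp only [← r1, v1, map_neg]
    abel
  have c5 : ρ (ι x) w = w := by
    simp only [hw, map_add, r1, show x * (x * x) = 1 by decide +kernel, map_one, End.one_apply]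
    abel
  have c6 : ρ (ι z) (v + ρ (ι u) v) = v - ρ (ι u) v := by rw [map_add, c1, c2, sub_eq_add_neg]
  have c7 : ρ (ι z) (v - ρ (ι u) v) = v + ρ (ι u) v := by rw [map_sub, c1, c2, sub_neg_eq_add]
  obtain ⟨c, hc⟩ := (finrank_eq_one_iff_of_nonzero' (⟨_, (a0 v v1).1⟩ : U 1) fun e => v0 (r2 _ (by
    have e1 : v + ρ (ι u) v = 0 := congrArg Subtype.val e
    rw [e1, map_zero] at c6
    linear_combination (norm := module) e1 - c6))).1 hU ⟨_, (a0 w c4).1⟩
  obtain ⟨d, hd⟩ := (finrank_eq_one_iff_of_nonzero' (⟨_, (a0 v v1).2⟩ : U (-1)) fun e => v0 (r2 _ (by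
    have e1 : v - ρ (ι u) v = 0 := congrArg Subtype.val e
    rw [e1, map_zero] at c7
    linear_combination (norm := module) e1 - c7))).1 hU' ⟨_, (a0 w c4).2⟩
  have c8 : c • (v + ρ (ι u) v) + d • (v - ρ (ι u) v) = w + w := by
    have e1 : c • (v + ρ (ι u) v) = w + ρ (ι u) w := congrArg Subtype.val hc
    have e2 : d • (v - ρ (ι u) v) = w - ρ (ι u) w := congrArg Subtype.val hd
    linear_combination (norm := module) e1 + e2
  have c9 := congrArg (ρ (ι z)) c8
  rw [map_add, map_add, map_smul, map_smul, c6, c7, c3] at c9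
  have c10 : (c + d) • v = w + w := sub_eq_zero.1 (r2 _ (by linear_combination (norm := module) c8 + c9))
  by_cases h0 : c + d = 0
  · exact r2 _ (by rw [← c10, h0, zero_smul])
  have c11 := congrArg (ρ (ι x)) c10
  rw [map_smul, map_add, c5, ← c10] at c11
  have c12 := smul_right_injective V h0 c11
  let q : alternatingGroup (Fin 9) := ev [(4, 2), (4, 3)] (by decide +kernel)
  let N := (fixer ρ {v}).comap ι
  have n1 : x ∈ N := fun _ h => h ▸ c12
  have n2 : q ∈ N := fun _ h => h ▸ a5 q (by decide +kernel)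
  have n3 : t ∈ N := by
    have u3 := mul_mem (mul_mem n2 n1) (inv_mem n2)
    have u4 := mul_mem (mul_mem n2 u3) (inv_mem n2)
    convert mul_mem (mul_mem (inv_mem u3) u4) (inv_mem u3) using 1
    decide +kernel
  exact absurd (r2 v (eq_neg_iff_add_eq_zero.1 ((n3 v rfl).symm.trans v1))) v0

end CfsgLib.AltSec
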